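import Cfsg.Agent.H600.EB.TitsMain
import Cfsg.Agent.H735.EB.TitsGood
import Cfsg.Agent.H707.RowTits

/-!
# S4522, the row of the Tits group
-/

set_option autoImplicit false

namespace Cfsg.Agent.H735.EBTits

open Cfsg

universe u

/-- **The row of the Tits group.** -/
theorem evenB_tits {K : Type u} [Group K] (h : Lie.IsoTits K) : Cfsg.Agent.H684.EB.EvenB K := by
  obtain ⟨e1⟩ := h
  obtain ⟨e2⟩ := Cfsg.Agent.H707.RowTits.equiv
  have : Finite K := Finite.of_equiv _ (e1.trans e2).symm.toEquiv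
  exact Cfsg.Agent.H600.EBTits.evenB_of_equiv (e1.trans e2) (good_S ⟨e1⟩)

end Cfsg.Agent.H735.EBTits
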